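import Cfsg.Agent.Lib.FFourTwo.Checks
import Cfsg.Agent.Lib.ChevMult.Universal
import Cfsg.Agent.Lib.Chevalley.Torus

/-!
Commutators of lifts in a central extension of the group of type `F₄` over two elements: all of them are
determined by one central involution.
-/

set_option autoImplicit false
set_option linter.all false

namespace CfsgLib.FFourTwo

open Cfsg.Lie CfsgLib.ChevMult CfsgLib.Chevalley
open scoped commutatorElement

universe u

variable {A : Aux} {F : Type*} [Field F] {hS : Std chevF4 A} {Γ : Type u} [Group Γ]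
variable {π : Γ →* ↥(chevF4.group F)}

/-- the root element -/
noncomputable abbrev g (hS : Std chevF4 A) (F : Type*) [Field F] (r : ℕ) : ↥(chevF4.group F) := xg hS.cert r 1

/-- the commutator of two lifts -/
noncomputable abbrev P (E : CExt hS π) (r s : ℕ) : Γ := E.cl r s 1 1

/-- the canonical lift -/
noncomputable abbrev X (E : CExt hS π) (k : ℕ) : Γ := P E (canon k).1 (canon k).2

/-- the central element -/
noncomputable abbrev B (E : CExt hS π) : Γ := P E 0 29 * (X E 3 * X E 6)⁻¹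

variable (hF : ∀ s : F, s = 0 ∨ s = 1)
include hF

theorem two_eq : (1 : F) + 1 = 0 :=
  (hF (1 + 1)).resolve_right fun h => one_ne_zero (α := F) (by linear_combination h)

theorem neg_one_eq : (-1 : F) = 1 := by linear_combination -(two_eq hF)

theorem cast_odd {C : ℤ} (h : Nat.beq C.natAbs 1 = true) : (C : F) = 1 := by
  rcases Int.natAbs_eq C with e | e <;> rw [Nat.eq_of_beq_eq_true h] at e <;> rw [e]
  · simp
  · simpa using neg_one_eq hF

theorem cast_even {C : ℤ} (h : C % 2 = 0) : (C : F) = 0 := by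
  obtain ⟨m, rfl⟩ := Int.dvd_of_emod_eq_zero h
  rw [Int.cast_mul, Int.cast_ofNat, show (2 : F) = 0 by linear_combination two_eq hF, zero_mul]

theorem g_sq (r : ℕ) : g hS F r * g hS F r = 1 := by
  rw [g, xg_mul, two_eq hF, xg_zero]

theorem g_inv (r : ℕ) : (g hS F r)⁻¹ = g hS F r := inv_eq_of_mul_eq_one_right (g_sq (hS := hS) hF r)

theorem com_img {r s : ℕ} (h : com2B r s = true) : Commute (g hS F r) (g hS F s) := by
  simp only [com2B, Bool.and_eq_true, decide_eq_true_eq, Bool.or_eq_true, List.all_eq_true] at h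
  obtain ⟨⟨hr, hs, hn⟩, h⟩ := h
  by_cases he : s = r
  · rw [he]
  have hall := h.resolve_left fun e => he (Nat.eq_of_beq_eq_true e)
  have e := xg_comm hS hr hs he hn (1 : F) 1
  have hw : ((chevF4.commWord F r s 1 1).map fun p => xg hS.cert p.1 p.2).prod = 1 := by
    refine List.prod_eq_one fun x hx => ?_
    obtain ⟨p, hp, rfl⟩ := List.mem_map.1 hx
    obtain ⟨c, hc, rfl⟩ := List.mem_map.1 hp
    rw [cast_even hF (hall c hc), zero_mul, zero_mul, xg_zero]
  rw [hw] at e
  show g hS F r * g hS F s = g hS F s * g hS F r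
  calc g hS F r * g hS F s
      = g hS F r * g hS F s * ((g hS F s)⁻¹ * (g hS F r)⁻¹ * g hS F s * g hS F r) := by rw [e, mul_one]
    _ = _ := by group

theorem sum_img {r s k : ℕ} (h : singleB chevF4 1 r s k = true) : ⁅g hS F s, g hS F r⁆ = g hS F k := by
  obtain ⟨C, hC, hs⟩ := singleB_spec (hS := hS) (F := F) h
  have := hs 1 1
  rcases hC with rfl | rfl <;> simpa [neg_one_eq hF] using this

theorem two_spec {r s : ℕ} (h : twoB r s = true) :
    r < 48 ∧ s < 48 ∧ s ≠ r ∧ s ≠ chevF4.neg r ∧ com2B (term₁ r s) (term₂ r s) = true ∧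
      ∃ C C' : ℤ, ∃ i j i' j' : ℕ, Nat.beq C.natAbs 1 = true ∧ Nat.beq C'.natAbs 1 = true ∧
        chevF4.commTerms r s = [(term₁ r s, C, i, j), (term₂ r s, C', i', j')] := by
  simp only [twoB, Bool.and_eq_true, decide_eq_true_eq] at h
  obtain ⟨⟨hr, hs, hne, hnn⟩, h⟩ := h
  revert h
  split
  case h_2 => simp
  rename_i k C i j l C' i' j' heq
  intro h
  simp only [Bool.and_eq_true] at h
  have e1 : term₁ r s = k := by simp [term₁, heq]
  have e2 : term₂ r s = l := by simp [term₂, heq]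
  refine ⟨hr, hs, hne, hnn, by rw [e1, e2]; exact h.2, C, C', i, j, i', j', h.1.1, h.1.2, by rw [e1, e2]; exact heq⟩

theorem two_img {r s : ℕ} (h : twoB r s = true) :
    ⁅g hS F s, g hS F r⁆ = g hS F (term₁ r s) * g hS F (term₂ r s) := by
  obtain ⟨hr, hs, hne, hnn, -, C, C', i, j, i', j', hC, hC', heq⟩ := two_spec hF h
  have e := xg_comm hS hr hs hne hnn (1 : F) 1
  simp only [ChevalleyDatum.commWord, heq, List.map_cons, List.map_nil, List.prod_cons, List.prod_nil, mul_one,
    neg_one_eq hF, one_pow, cast_odd hF hC, cast_odd hF hC'] at e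
  rw [← e]
  rw [commutatorElement_def, g_inv (hS := hS) hF, g_inv (hS := hS) hF]

theorem map_P_of_com (E : CExt hS π) {r s : ℕ} (h : com2B r s = true) : π (P E r s) = 1 := by
  rw [P, CExt.cl, map_commutatorElement, E.map_lift, E.map_lift, commutatorElement_eq_one_iff_commute]
  exact com_img (hS := hS) hF h

theorem map_P_of_sum (E : CExt hS π) {r s k : ℕ} (h : sumB r s k = true) : π (P E r s) = g hS F k := by
  simp only [sumB, Bool.and_eq_true] at h
  rw [P, CExt.cl, map_commutatorElement, E.map_lift, E.map_lift]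
  exact sum_img (hS := hS) hF h.2

omit hF in
theorem comm_of_P (E : CExt hS π) {r k : ℕ} (h : P E r k = 1) {a b : Γ} (ha : π a = g hS F r)
    (hb : π b = g hS F k) : Commute a b :=
  commutatorElement_eq_one_iff_commute.1 (by rw [E.cl_eq ha hb]; exact h)

omit hF in
theorem P_eq_one_of_comm (E : CExt hS π) {r k : ℕ} (h : Commute (E.lift r 1) (E.lift k 1)) : P E r k = 1 :=
  commutatorElement_eq_one_iff_commute.2 h

theorem kill₁_eq (E : CExt hS π) {r k : ℕ} (h : kill₁ r k = true) : P E r k = 1 := by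
  simp only [kill₁, Bool.and_eq_true] at h
  obtain ⟨⟨⟨-, hs⟩, ha⟩, hb⟩ := h
  generalize (why r k - 1) / 64 = a at hs ha
  generalize (why r k - 1) % 64 = b at hs hb
  refine P_eq_one_of_comm E (E.commute_of_image_eq (y := ⁅E.lift b 1, E.lift a 1⁆) ?_
    (E.commute_commutator ?_ ?_))
  · rw [map_commutatorElement, E.map_lift, E.map_lift, E.map_lift]
    exact (sum_img (hS := hS) hF hs).symm
  · rw [E.map_lift, E.map_lift]; exact com_img (hS := hS) hF ha
  · rw [E.map_lift, E.map_lift]; exact com_img (hS := hS) hF hb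

theorem kill₁'_eq (E : CExt hS π) {r k : ℕ} (h : kill₁' r k = true) : P E r k = 1 := by
  simp only [kill₁', Bool.or_eq_true] at h
  rcases h with (h | h) | h
  · rw [Nat.eq_of_beq_eq_true h]; exact P_eq_one_of_comm E (Commute.refl _)
  · exact kill₁_eq hF E h
  · exact P_eq_one_of_comm E (comm_of_P E (kill₁_eq hF E h) (E.map_lift _ _) (E.map_lift _ _)).symm

theorem kill₂_eq (E : CExt hS π) {r k : ℕ} (h : kill₂ r k = true) : P E r k = 1 := by
  simp only [kill₂, Bool.and_eq_true, Bool.or_eq_true] at h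
  obtain ⟨⟨⟨⟨-, hs⟩, ha⟩, hb⟩, h⟩ := h
  generalize (why r k - 4097) / 64 = a at hs ha h
  generalize (why r k - 4097) % 64 = b at hs hb h
  have himg : π ⁅E.lift b 1, E.lift a 1⁆ = g hS F (term₁ a b) * g hS F (term₂ a b) := by
    rw [map_commutatorElement, E.map_lift, E.map_lift]; exact two_img (hS := hS) hF hs
  have hz : Commute (E.lift r 1) ⁅E.lift b 1, E.lift a 1⁆ := by
    refine E.commute_commutator ?_ ?_
    · rw [E.map_lift, E.map_lift]; exact com_img (hS := hS) hF ha
    · rw [E.map_lift, E.map_lift]; exact com_img (hS := hS) hF hb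
  rcases h with ⟨hk, hk'⟩ | ⟨hk, hk'⟩
  · obtain rfl := Nat.eq_of_beq_eq_true hk
    have hc := comm_of_P E (kill₁'_eq hF E hk') (E.map_lift _ _) (E.map_lift _ _)
    refine P_eq_one_of_comm E
      (E.commute_of_image_eq (y := ⁅E.lift b 1, E.lift a 1⁆ * (E.lift (term₂ a b) 1)⁻¹) ?_
      (hz.mul_right hc.inv_right))
    rw [map_mul, map_inv, himg, E.map_lift, E.map_lift, mul_inv_cancel_right]
  · obtain rfl := Nat.eq_of_beq_eq_true hk
    have hc := comm_of_P E (kill₁'_eq hF E hk') (E.map_lift _ _) (E.map_lift _ _)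
    refine P_eq_one_of_comm E
      (E.commute_of_image_eq (y := (E.lift (term₁ a b) 1)⁻¹ * ⁅E.lift b 1, E.lift a 1⁆) ?_
      (hc.inv_right.mul_right hz))
    rw [map_mul, map_inv, himg, E.map_lift, E.map_lift, inv_mul_cancel_left]

theorem kill_eq (E : CExt hS π) {r k : ℕ} (h : killB r k = true) : P E r k = 1 := by
  simp only [killB, Bool.or_eq_true] at h
  rcases h with (h | h) | h
  · exact kill₁'_eq hF E h
  · exact kill₂_eq hF E h
  · exact P_eq_one_of_comm E (comm_of_P E (kill₂_eq hF E h) (E.map_lift _ _) (E.map_lift _ _)).symm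

theorem kill_comm (E : CExt hS π) {r k : ℕ} (h : killB r k = true) {a b : Γ} (ha : π a = g hS F r)
    (hb : π b = g hS F k) : Commute a b :=
  comm_of_P E (kill_eq hF E h) ha hb

theorem P_sq_of (E : CExt hS π) {r s : ℕ} (hc : Commute (E.lift r 1) (P E r s)) : P E r s * P E r s = 1 := by
  have h1 : ⁅E.lift r 1 * E.lift r 1, E.lift s 1⁆ = 1 := by
    rw [E.comm_congr (show π (E.lift r 1 * E.lift r 1) = π 1 by
      rw [map_mul, map_one, E.map_lift]; exact g_sq (hS := hS) hF r) rfl, commutatorElement_one_left]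
  have h2 : ⁅E.lift r 1 * E.lift r 1, E.lift s 1⁆ =
      E.lift r 1 * P E r s * (E.lift r 1)⁻¹ * P E r s := by
    simp only [P, CExt.cl, commutatorElement_def]; group
  rwa [h1, hc.eq, mul_inv_cancel_right, eq_comm] at h2

theorem P_sq_sum (E : CExt hS π) {r s k : ℕ} (h : sumB r s k = true) (hk : killB r k = true) :
    P E r s * P E r s = 1 :=
  P_sq_of hF E (kill_comm hF E hk (E.map_lift _ _) (map_P_of_sum hF E h))

omit hF in
theorem P_swap_of (E : CExt hS π) {r s : ℕ} (h : P E r s * P E r s = 1) : P E s r = P E r s := by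
  rw [P, CExt.cl, ← commutatorElement_inv]
  exact inv_eq_of_mul_eq_one_right h

omit hF in
theorem same_eq (E : CExt hS π) {a b c d : ℕ} (h : sameB a b c d = true) (hsq : P E a b * P E a b = 1) :
    P E c d = P E a b := by
  simp only [sameB, Bool.or_eq_true, Bool.and_eq_true] at h
  rcases h with ⟨h1, h2⟩ | ⟨h1, h2⟩
  · rw [← Nat.eq_of_beq_eq_true h1, ← Nat.eq_of_beq_eq_true h2]
  · rw [← Nat.eq_of_beq_eq_true h1, ← Nat.eq_of_beq_eq_true h2, P_swap_of E hsq]

/-- The Hall–Witt relation. -/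
theorem edge (E : CExt hS π) {a m y x y' k : ℕ} (h : edgeOkB a m y x y' k = true) :
    P E a y' = P E x y ∧ P E x y * P E x y = 1 := by
  simp only [edgeOkB, Bool.and_eq_true] at h
  obtain ⟨⟨⟨⟨⟨⟨⟨⟨ham, hmy⟩, hxy⟩, -⟩, hay⟩, hxy'⟩, hy'k⟩, hxk⟩, -⟩ := h
  set a' := E.lift a 1
  set m' := E.lift m 1
  set y₀ := E.lift y 1
  set p := ⁅a', m'⁆
  set q := ⁅m', y₀⁆
  have hp : π p = g hS F x := map_P_of_sum hF E ham
  have hq : π q = g hS F y' := map_P_of_sum hF E hmy
  have e1 : ⁅p, y₀⁆ = P E x y := E.cl_eq hp (E.map_lift _ _)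
  have e2 : ⁅a', q⁆ = P E a y' := E.cl_eq (E.map_lift _ _) hq
  have hz : π ⁅a', y₀⁆ = 1 := map_P_of_com hF E hay
  have hw : ⁅p, q⁆ = 1 := by rw [E.cl_eq hp hq]; exact kill_eq hF E hxy'
  have hqv : Commute q ⁅p, y₀⁆ := kill_comm hF E hy'k hq (by rw [e1]; exact map_P_of_sum hF E hxy)
  have hconj : a' * q * a'⁻¹ = ⁅p * m', y₀⁆ := by
    rw [show a' * q * a'⁻¹ = ⁅a' * m' * a'⁻¹, a' * y₀ * a'⁻¹⁆ by simp only [q, commutatorElement_def]; group]
    refine E.comm_congr ?_ ?_
    · congr 1; simp only [p, commutatorElement_def]; group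
    · rw [show a' * y₀ * a'⁻¹ = ⁅a', y₀⁆ * y₀ by simp only [commutatorElement_def]; group, map_mul, hz, one_mul]
  have hpq : p * q * p⁻¹ = q := by
    rw [commutatorElement_eq_one_iff_commute] at hw
    rw [hw.eq, mul_inv_cancel_right]
  have key : ⁅a', q⁆ = ⁅p, y₀⁆ := by
    calc ⁅a', q⁆ = (a' * q * a'⁻¹) * q⁻¹ := by simp only [commutatorElement_def]
      _ = ⁅p * m', y₀⁆ * q⁻¹ := by rw [hconj]
      _ = (p * q * p⁻¹) * ⁅p, y₀⁆ * q⁻¹ := by simp only [q, commutatorElement_def]; group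
      _ = ⁅p, y₀⁆ := by rw [hpq, hqv.eq, mul_inv_cancel_right]
  exact ⟨e2 ▸ e1 ▸ key, P_sq_sum hF E hxy hxk⟩

theorem map_X (E : CExt hS π) {k : ℕ} (hk : k < 48) : π (X E k) = g hS F k := by
  have h := canon_ok k hk
  rw [Bool.and_eq_true] at h
  exact map_P_of_sum hF E h.1

theorem X_sq (E : CExt hS π) {k : ℕ} (hk : k < 48) : X E k * X E k = 1 := by
  have h := canon_ok k hk
  rw [Bool.and_eq_true] at h
  exact P_sq_sum hF E h.1 h.2

theorem X_comm (E : CExt hS π) {k l : ℕ} (hk : k < 48) (hl : l < 48) (h : killB k l = true) :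
    Commute (X E k) (X E l) :=
  kill_comm hF E h (map_X hF E hk) (map_X hF E hl)

theorem sum_eq (E : CExt hS π) {r s : ℕ} (h : sumB r s (term₁ r s) = true)
    (hl : (ones.any fun e => sameB r s e.1 e.2.1 && Nat.beq (term₁ e.1 e.2.1) (term₁ r s)) = true) :
    P E r s = X E (term₁ r s) := by
  have key : ∀ i < 192, P E (ones.getD i (0, 0, 0, 0, 0, 0)).1 (ones.getD i (0, 0, 0, 0, 0, 0)).2.1 =
      X E (term₁ (ones.getD i (0, 0, 0, 0, 0, 0)).1 (ones.getD i (0, 0, 0, 0, 0, 0)).2.1) ∧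
      P E (ones.getD i (0, 0, 0, 0, 0, 0)).1 (ones.getD i (0, 0, 0, 0, 0, 0)).2.1 *
        P E (ones.getD i (0, 0, 0, 0, 0, 0)).1 (ones.getD i (0, 0, 0, 0, 0, 0)).2.1 = 1 := by
    intro i
    induction i using Nat.strong_induction_on with
    | _ i ih =>
    intro hi
    have hc := ones_ok i hi
    unfold oneOk at hc
    generalize ones.getD i (0, 0, 0, 0, 0, 0) = e at hc ⊢
    obtain ⟨r, s, p, a, m, y⟩ := e
    simp only [Bool.and_eq_true, Bool.or_eq_true] at hc
    obtain ⟨⟨hsum, hkill⟩, hc⟩ := hc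
    have hsq := P_sq_sum hF E hsum hkill
    refine ⟨?_, hsq⟩
    rcases hc with ⟨-, hsame⟩ | ⟨⟨⟨hp, hpk⟩, hedge⟩, hsame⟩
    · exact (same_eq E hsame hsq).symm
    · have hp' : p < i := Nat.le_of_ble_eq_true hp
      obtain ⟨hpar, hpsq⟩ := ih p hp' (hp'.trans hi)
      rw [Nat.eq_of_beq_eq_true hpk] at hpar
      obtain ⟨he, hesq⟩ := edge hF E hedge
      rcases hsame with ⟨c1, c2⟩ | ⟨c1, c2⟩
      · rw [← hpar, ← same_eq E c1 hsq, ← same_eq E c2 hpsq]
        exact he
      · rw [← hpar, ← same_eq E c2 hsq, ← same_eq E c1 hpsq]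
        exact he.symm
  obtain ⟨e, hem, hsame⟩ := List.any_eq_true.1 hl
  rw [Bool.and_eq_true] at hsame
  obtain ⟨i, hi, rfl⟩ := List.mem_iff_getElem.1 hem
  obtain ⟨h1, h2⟩ := key i (ones_len ▸ hi)
  rw [List.getD_eq_getElem _ _ hi, Nat.eq_of_beq_eq_true hsame.2] at h1
  rw [List.getD_eq_getElem _ _ hi] at h2
  have hs' : sameB ones[i].1 ones[i].2.1 r s = true := by
    have := hsame.1
    simp only [sameB, Bool.or_eq_true, Bool.and_eq_true, Nat.beq_eq] at this ⊢
    omega
  rw [same_eq E hs' h2, h1]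

theorem exists_weyl (E : CExt hS π) {i : ℕ} (hi : i < 4) (h : Full chevF4 A) :
    ∃ N : Γ, ∀ k < 48, ∀ a : Γ, π a = g hS F k → π (N * a * N⁻¹) = g hS F (chevF4.reflectRoot i k) := by
  have hA := acts_nG_simple (F := F) h ⟨i, hi⟩ (one_ne_zero)
  have hmem : nG (F := F) hS.cert (chevF4.simple i) 1 ∈ chevF4.group F := by
    simp only [nG]
    exact mul_mem (mul_mem (xG_mem_group _ _ _) (xG_mem_group _ _ _)) (xG_mem_group _ _ _)
  obtain ⟨N, hN⟩ := E.surj ⟨_, hmem⟩
  refine ⟨N, fun k hk a ha => ?_⟩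
  rw [map_mul, map_mul, map_inv, hN, ha]
  refine Subtype.ext ?_
  simp only [Subgroup.coe_mul, Subgroup.coe_inv, coe_xg]
  rw [hA.conj ⟨k, hk⟩ 1, mul_one, (hF _).resolve_left (hA.ne_zero ⟨k, hk⟩)]
  rfl

theorem weyl_P (E : CExt hS π) {i : ℕ} {N : Γ}
    (hN : ∀ k < 48, ∀ a : Γ, π a = g hS F k → π (N * a * N⁻¹) = g hS F (chevF4.reflectRoot i k))
    {r s : ℕ} (hr : r < 48) (hs : s < 48) :
    N * P E r s * N⁻¹ = P E (chevF4.reflectRoot i r) (chevF4.reflectRoot i s) := by
  rw [P, CExt.cl, conjugate_commutatorElement]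
  exact E.cl_eq (hN r hr _ (E.map_lift _ _)) (hN s hs _ (E.map_lift _ _))

omit hF in
theorem sum_lt {r s k : ℕ} (h : sumB r s k = true) : r < 48 ∧ s < 48 := by
  simp only [sumB, ChevMult.singleB, Bool.and_eq_true, decide_eq_true_eq] at h
  exact ⟨h.1.1.1, h.1.1.2.1⟩

omit hF in
theorem sum_term {r s k : ℕ} (h : sumB r s k = true) : term₁ r s = k := by
  simp only [sumB, ChevMult.singleB, Bool.and_eq_true, decide_eq_true_eq] at h
  rcases h.1.2 with e | e <;> simp [term₁, e]

theorem class_sum (E : CExt hS π) {r s k : ℕ} (h : sumB r s k = true) (hk : k < 48) :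
    P E r s = X E k := by
  obtain ⟨hr, hs⟩ := sum_lt h
  obtain rfl := (sum_term h).symm
  refine sum_eq hF E h ?_
  have hc := classify r hr s hs
  simp only [Bool.or_eq_true, Bool.and_eq_true] at hc
  rcases hc with ((hc | hc) | hc) | hc
  · simp only [sumB, ChevMult.singleB, Bool.and_eq_true, decide_eq_true_eq] at h
    exact absurd (Nat.eq_of_beq_eq_true hc) h.1.1.2.2.2
  · have e1 : π (P E r s) = g hS F (term₁ r s) := map_P_of_sum hF E h
    rw [map_P_of_com hF E hc.1] at e1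
    exact absurd (xg_eq_one hS.cert hk e1.symm) one_ne_zero
  · exact hc.2
  · obtain ⟨-, -, -, -, -, C, C', i, j, i', j', -, -, e⟩ := two_spec hF hc.1.1
    simp only [sumB, ChevMult.singleB, Bool.and_eq_true, decide_eq_true_eq] at h
    rcases h.1.2 with e' | e' <;> rw [e] at e' <;> simp at e'

theorem map_P_two (E : CExt hS π) {r s : ℕ} (h : twoB r s = true) :
    π (P E r s) = g hS F (term₁ r s) * g hS F (term₂ r s) := by
  have e : π (P E s r) = g hS F (term₁ r s) * g hS F (term₂ r s) := by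
    rw [P, CExt.cl, map_commutatorElement, E.map_lift, E.map_lift]; exact two_img (hS := hS) hF h
  obtain ⟨-, -, -, -, hc, -⟩ := two_spec hF h
  rw [P, CExt.cl, ← commutatorElement_inv, map_inv]
  rw [show ⁅E.lift s 1, E.lift r 1⁆ = P E s r from rfl, e, mul_inv_rev, g_inv (hS := hS) hF, g_inv (hS := hS) hF, (com_img (hS := hS) hF hc).eq]

theorem map_B (E : CExt hS π) : π (B E) = 1 := by
  obtain ⟨h0, t1, t2⟩ := two_root
  have h2 := twos_ok 0 (by norm_num)
  simp only [twoOk, h0, Bool.and_eq_true] at h2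
  have hP := map_P_two hF E h2.1
  rw [t1, t2] at hP
  rw [B, map_mul, map_inv, map_mul, hP, map_X hF E (by norm_num), map_X hF E (by norm_num), mul_inv_cancel]

theorem B_sq (E : CExt hS π) : B E * B E = 1 := by
  have hk := two_root_kill
  simp only [Bool.and_eq_true] at hk
  obtain ⟨⟨h3, h6⟩, h36⟩ := hk
  obtain ⟨h0, t1, t2⟩ := two_root
  have h2 := twos_ok 0 (by norm_num)
  simp only [twoOk, h0, Bool.and_eq_true] at h2
  have hP := map_P_two hF E h2.1
  rw [t1, t2] at hP
  have hc : Commute (E.lift 0 1) (P E 0 29) := by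
    refine E.commute_of_image_eq (y := E.lift 3 1 * E.lift 6 1) ?_
      ((kill_comm hF E h3 (E.map_lift _ _) (E.map_lift _ _)).mul_right
        (kill_comm hF E h6 (E.map_lift _ _) (E.map_lift _ _)))
    rw [hP, map_mul, E.map_lift, E.map_lift]
  have hsq := P_sq_of hF E hc
  have hX : (X E 3 * X E 6) * (X E 3 * X E 6) = 1 := by
    rw [mul_assoc, ← mul_assoc (X E 6), ← (X_comm hF E (by norm_num) (by norm_num) h36).eq, mul_assoc,
      X_sq hF E (by norm_num), mul_one, X_sq hF E (by norm_num)]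
  have hcen : ∀ x, x * B E = B E * x := E.mul_comm_ker (map_B hF E)
  have e : P E 0 29 = B E * (X E 3 * X E 6) := by rw [B, inv_mul_cancel_right]
  rw [e] at hsq
  calc B E * B E = B E * B E * ((X E 3 * X E 6) * (X E 3 * X E 6)) := by rw [hX, mul_one]
    _ = B E * (B E * (X E 3 * X E 6)) * (X E 3 * X E 6) := by group
    _ = B E * ((X E 3 * X E 6) * B E) * (X E 3 * X E 6) := by rw [hcen]
    _ = _ := by rw [← hsq]; group

theorem two_eq_B (E : CExt hS π) (h : Full chevF4 A) {r s : ℕ} (ht : twoB r s = true)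
    (hl : listedB r s = true) : P E r s = B E * (X E (term₁ r s) * X E (term₂ r s)) := by
  have hcen : ∀ x, x * B E = B E * x := E.mul_comm_ker (map_B hF E)
  have key : ∀ j < 144, P E (twos.getD j (0, 0, 0, 0)).1 (twos.getD j (0, 0, 0, 0)).2.1 =
      B E * (X E (term₁ (twos.getD j (0, 0, 0, 0)).1 (twos.getD j (0, 0, 0, 0)).2.1) *
        X E (term₂ (twos.getD j (0, 0, 0, 0)).1 (twos.getD j (0, 0, 0, 0)).2.1)) := by
    intro j
    induction j using Nat.strong_induction_on with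
    | _ j ih =>
    intro hj
    have hc := twos_ok j hj
    unfold twoOk at hc
    simp only [Bool.and_eq_true, Bool.or_eq_true] at hc
    rcases hc.2 with h0 | h0
    · obtain rfl := Nat.eq_of_beq_eq_true h0
      obtain ⟨e0, t1, t2⟩ := two_root
      rw [e0, t1, t2, B, inv_mul_cancel_right]
    obtain ⟨⟨⟨⟨⟨hp, hi⟩, e1⟩, e2⟩, e3⟩, e4⟩ := h0
    have hp' : (twos.getD j (0, 0, 0, 0)).2.2.1 < j := Nat.le_of_ble_eq_true hp
    have hi' : (twos.getD j (0, 0, 0, 0)).2.2.2 < 4 := Nat.le_of_ble_eq_true hi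
    have hpar := ih _ hp' (hp'.trans hj)
    have hc' := twos_ok _ (hp'.trans hj)
    simp only [twoOk, Bool.and_eq_true] at hc'
    generalize twos.getD j (0, 0, 0, 0) = e at *
    obtain ⟨r', s', p, i⟩ := e
    generalize twos.getD p (0, 0, 0, 0) = q at *
    obtain ⟨a, b, p₂, i₂⟩ := q
    simp only [Nat.beq_eq] at e1 e2 e3 e4
    obtain ⟨ha, hb, -⟩ := two_spec hF hc'.1
    have hk := two_kill a ha b hb
    simp only [hc'.1, Bool.not_true, Bool.false_or, Bool.and_eq_true] at hk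
    have hk1 : term₁ a b < 48 := Nat.le_of_ble_eq_true hk.1.2
    have hk2 : term₂ a b < 48 := Nat.le_of_ble_eq_true hk.2
    obtain ⟨N, hN⟩ := exists_weyl hF E hi' h
    have hX : ∀ k < 48, chevF4.reflectRoot i k < 48 → N * X E k * N⁻¹ = X E (chevF4.reflectRoot i k) := by
      intro k hk hk'
      have hcan := canon_ok k hk
      rw [Bool.and_eq_true] at hcan
      rw [weyl_P hF E hN (sum_lt hcan.1).1 (sum_lt hcan.1).2]
      exact class_sum hF E (sigma_one i hi' k hk) hk'
    have hσ : ∀ k, k < 48 → chevF4.reflectRoot i k < 48 := fun k hk =>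
      ((rf hS.cert ⟨i, hi'⟩ ⟨k, hk⟩)).2
    calc P E r' s' = N * P E a b * N⁻¹ := by rw [weyl_P hF E hN ha hb, e1, e2]
      _ = N * B E * N⁻¹ * (N * X E (term₁ a b) * N⁻¹ * (N * X E (term₂ a b) * N⁻¹)) := by
          rw [hpar]; group
      _ = _ := by
          rw [hcen N, mul_inv_cancel_right, hX _ hk1 (hσ _ hk1), hX _ hk2 (hσ _ hk2), e3, e4]
  simp only [listedB, List.any_eq_true, Bool.or_eq_true, Bool.and_eq_true] at hl
  obtain ⟨e, hem, he⟩ := hl
  obtain ⟨j, hj, rfl⟩ := List.mem_iff_getElem.1 hem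
  have hkey := key j (twos_len ▸ hj)
  rw [List.getD_eq_getElem _ _ hj] at hkey
  rcases he with ⟨q1, q2⟩ | ⟨⟨q1, q2⟩, q3⟩
  · rwa [Nat.eq_of_beq_eq_true q1, Nat.eq_of_beq_eq_true q2] at hkey
  · rw [Nat.eq_of_beq_eq_true q1, Nat.eq_of_beq_eq_true q2] at hkey
    obtain ⟨hr, hs, -⟩ := two_spec hF ht
    have hk := two_kill r hr s hs
    simp only [ht, Bool.not_true, Bool.false_or, Bool.and_eq_true] at hk
    have hk1 : term₁ r s < 48 := Nat.le_of_ble_eq_true hk.1.2
    have hk2 : term₂ r s < 48 := Nat.le_of_ble_eq_true hk.2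
    have hcomm := X_comm hF E hk1 hk2 hk.1.1
    have hXX : X E (term₁ s r) * X E (term₂ s r) = X E (term₁ r s) * X E (term₂ r s) := by
      simp only [sameB, Bool.or_eq_true, Bool.and_eq_true, Nat.beq_eq] at q3
      rcases q3 with ⟨u, v⟩ | ⟨u, v⟩
      · rw [← u, ← v]
      · rw [← u, ← v]; exact hcomm.eq.symm
    rw [hXX] at hkey
    have hsq : P E s r * P E s r = 1 := by
      rw [hkey]
      calc B E * (X E (term₁ r s) * X E (term₂ r s)) * (B E * (X E (term₁ r s) * X E (term₂ r s)))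
          = B E * ((X E (term₁ r s) * X E (term₂ r s)) * B E) * (X E (term₁ r s) * X E (term₂ r s)) := by group
        _ = B E * B E * (X E (term₁ r s) * (X E (term₂ r s) * X E (term₁ r s)) * X E (term₂ r s)) := by
            rw [hcen]; group
        _ = 1 := by
            rw [← hcomm.eq, B_sq hF E, one_mul, ← mul_assoc, X_sq hF E hk1, one_mul, X_sq hF E hk2]
    rw [P_swap_of E hsq, hkey]

end CfsgLib.FFourTwo
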