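import Cfsg.Agent.Lib.FFourTwo.Data

/-! The checks of the tables. -/

set_option autoImplicit false
set_option maxRecDepth 20000
set_option Elab.async false

namespace CfsgLib.FFourTwo

open Cfsg.Lie CfsgLib.ChevMult

/-- the chosen pair -/
def canon (k : ℕ) : ℕ × ℕ := canonL.getD k (0, 0)

theorem canon_ok : ∀ k < 48, (sumB (canon k).1 (canon k).2 k && killB (canon k).1 k) = true := by decide +kernel

theorem ones_ok : ∀ i < 192, oneOk i = true := by decide +kernel

theorem ones_len : ones.length = 192 := by decide +kernel

theorem twos_ok : ∀ j < 144, twoOk j = true := by decide +kernel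

theorem twos_len : twos.length = 144 := by decide +kernel

theorem two_root : twos.getD 0 (0, 0, 0, 0) = (0, 29, 0, 0) ∧ term₁ 0 29 = 3 ∧ term₂ 0 29 = 6 := by decide +kernel

theorem two_root_kill : (killB 0 3 && killB 0 6 && killB 3 6) = true := by decide +kernel

theorem classify : ∀ r < 48, ∀ s < 48, (Nat.beq s (chevF4.neg r) ||
    (com2B r s && killB r s) ||
    (sumB r s (term₁ r s) && Nat.blt (term₁ r s) 48 &&
      ones.any fun e => sameB r s e.1 e.2.1 && Nat.beq (term₁ e.1 e.2.1) (term₁ r s)) ||
    (twoB r s && twoB s r && listedB r s)) = true := by decide +kernel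

theorem two_kill : ∀ r < 48, ∀ s < 48, (!twoB r s ||
    (killB (term₁ r s) (term₂ r s) && Nat.blt (term₁ r s) 48 && Nat.blt (term₂ r s) 48)) = true := by decide +kernel

theorem sigma_one : ∀ i < 4, ∀ k < 48, sumB (chevF4.reflectRoot i (canon k).1)
    (chevF4.reflectRoot i (canon k).2) (chevF4.reflectRoot i k) = true := by decide +kernel

end CfsgLib.FFourTwo
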