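import Cfsg.Agent.Lib.FFourTwo.Bound
import Cfsg.Agent.Lib.SteinbergPres.KernelAll

/-!
The lifts in a central extension in which the central involution vanishes, and the bound on the kernel.
-/

set_option autoImplicit false
set_option linter.all false

namespace CfsgLib.FFourTwo

open Cfsg.Lie CfsgLib.ChevMult CfsgLib.Chevalley CfsgLib.SteinbergPres
open scoped commutatorElement

universe u

variable {A : Aux} {F : Type*} [Field F] {hS : Std chevF4 A} {Γ : Type u} [Group Γ]
variable {π : Γ →* ↥(chevF4.group F)} (hF : ∀ s : F, s = 0 ∨ s = 1)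

open Classical in
/-- the lifts -/
noncomputable def lifts (E : CExt hS π) (k : ℕ) (t : F) : Γ := if t = 0 then 1 else X E k

include hF in
theorem lifts_spec (h : Full chevF4 A) (E : CExt hS π) (hB : B E = 1) : Lifts hS π (lifts E) := by
  have hmap : ∀ r < 48, ∀ t : F, π (lifts E r t) = xg hS.cert r t := fun r hr t => by
    rcases hF t with rfl | rfl
    · simp [lifts, xg_zero]
    · simp only [lifts, one_ne_zero, if_false]
      exact map_X hF E hr
  refine ⟨fun r hr => hmap r hr, fun r hr t u => ?_, fun r hr s hs h1 h2 t u => ?_⟩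
  · rcases hF t with rfl | rfl <;> rcases hF u with rfl | rfl
    · simp [lifts]
    · simp [lifts]
    · simp [lifts]
    · rw [two_eq hF]
      simp only [lifts, one_ne_zero, if_false, if_true]
      exact X_sq hF E hr
  have hr' : r < 48 := hr
  have hs' : s < 48 := hs
  have hX0 : ∀ k, lifts E k (0 : F) = 1 := fun k => by simp [lifts]
  have hX1 : ∀ k, lifts E k (1 : F) = X E k := fun k => by simp [lifts]
  -- the right-hand side at `t = 0` or `u = 0`
  have hw : ∀ p ∈ chevF4.commTerms r s, 0 < p.2.2.1 ∧ 0 < p.2.2.2 := by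
    intro p hp
    simp only [ChevalleyDatum.commTerms, List.mem_filterMap, List.mem_cons, List.not_mem_nil, or_false] at hp
    obtain ⟨c, hc, hpc⟩ := hp
    obtain ⟨k, -, rfl⟩ := Option.map_eq_some_iff.1 hpc
    rcases hc with rfl | rfl | rfl | rfl | rfl | rfl | rfl <;> exact ⟨by norm_num, by norm_num⟩
  rcases hF t with rfl | rfl
  · rw [ChevalleyDatum.commWord, List.prod_eq_one fun x hx => ?_]
    · simp [hX0]
    · obtain ⟨p, hp, rfl⟩ := List.mem_map.1 hx
      obtain ⟨c, hc, rfl⟩ := List.mem_map.1 hp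
      rw [neg_zero, zero_pow (hw c hc).1.ne', mul_zero, zero_mul, hX0]
  rcases hF u with rfl | rfl
  · rw [ChevalleyDatum.commWord, List.prod_eq_one fun x hx => ?_]
    · simp [hX0]
    · obtain ⟨p, hp, rfl⟩ := List.mem_map.1 hx
      obtain ⟨c, hc, rfl⟩ := List.mem_map.1 hp
      rw [zero_pow (hw c hc).2.ne', mul_zero, hX0]
  simp only [ChevalleyDatum.commWord, neg_one_eq hF, one_pow, mul_one, List.map_map, Function.comp_def]
  have hlhs : (lifts E s (1 : F))⁻¹ * (lifts E r (1 : F))⁻¹ * lifts E s 1 * lifts E r 1 = P E s r := by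
    have hinv : ∀ q, q < 48 → π (lifts E q (1 : F))⁻¹ = xg hS.cert q 1 := fun q hq => by
      rw [map_inv, hmap q hq]; exact g_inv (hS := hS) hF q
    show _ = E.cl s r 1 1
    rw [← E.cl_eq (hinv s hs') (hinv r hr'), commutatorElement_def, inv_inv, inv_inv]
  rw [hlhs]
  have hc := classify r hr' s hs'
  simp only [Bool.or_eq_true, Bool.and_eq_true] at hc
  rcases hc with ((hc | hc) | hc) | hc
  · exact absurd (Nat.eq_of_beq_eq_true hc) h2
  · have hz : P E s r = 1 := by
      refine P_eq_one_of_comm E (kill_comm hF E hc.2 (E.map_lift _ _) (E.map_lift _ _)).symm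
    have hcom := hc.1
    simp only [com2B, Bool.and_eq_true, decide_eq_true_eq, Bool.or_eq_true, List.all_eq_true] at hcom
    have hall := hcom.2.resolve_left fun e => h1 (Nat.eq_of_beq_eq_true e)
    rw [hz, List.prod_eq_one]
    intro x hx
    obtain ⟨c, hcm, rfl⟩ := List.mem_map.1 hx
    rw [cast_even hF (hall c hcm), hX0]
  · obtain ⟨⟨hsum, hlt⟩, -⟩ := hc
    have hk : term₁ r s < 48 := Nat.le_of_ble_eq_true hlt
    have hP := class_sum hF E hsum hk
    have h' := hsum
    simp only [sumB, ChevMult.singleB, Bool.and_eq_true, decide_eq_true_eq] at h'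
    have hsq : P E r s * P E r s = 1 := by rw [hP]; exact X_sq hF E hk
    rw [P_swap_of E hsq, hP]
    rcases h'.1.2 with e | e <;>
      simp [e, neg_one_eq hF, hX1]
  · obtain ⟨⟨ht, -⟩, hl⟩ := hc
    have hP := two_eq_B hF E h ht hl
    rw [hB, one_mul] at hP
    obtain ⟨-, -, -, -, hcm, C, C', i, j, i', j', hC, hC', e⟩ := two_spec hF ht
    have hk := two_kill r hr' s hs'
    simp only [ht, Bool.not_true, Bool.false_or, Bool.and_eq_true] at hk
    have hk1 : term₁ r s < 48 := Nat.le_of_ble_eq_true hk.1.2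
    have hk2 : term₂ r s < 48 := Nat.le_of_ble_eq_true hk.2
    have hsq : P E r s * P E r s = 1 := by
      have hcomm := X_comm hF E hk1 hk2 hk.1.1
      rw [hP, mul_assoc, ← mul_assoc (X E (term₂ r s)), ← hcomm.eq, mul_assoc, X_sq hF E hk2, mul_one,
        X_sq hF E hk1]
    rw [P_swap_of E hsq, hP, e]
    simp [cast_odd hF hC, cast_odd hF hC', hX1]

/-- A stem extension of the group has kernel generated by two commutators of order two. -/
theorem exists_ker_gen [Finite F] (h : Full chevF4 A) (hF : ∀ s : F, s = 0 ∨ s = 1) [Finite Γ]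
    (hπ : Cfsg.IsStemExtension π) :
    ∃ b : Γ, b ∈ π.ker ∧ b * b = 1 ∧ π.ker ≤ Subgroup.closure {b} := by
  classical
  have E : CExt h.toStd π := ⟨hπ.1, hπ.2.1⟩
  have m1 := map_B hF E
  set K := Subgroup.closure {B E} with hKdef
  have hKk : K ≤ π.ker := (Subgroup.closure_le _).2 (by
    rintro x rfl
    exact m1)
  have hN : K.Normal := ⟨fun z hz g => by
    rw [E.mul_comm_ker (hKk hz) g, mul_inv_cancel_right]; exact hz⟩
  let π' : Γ ⧸ K →* ↥(chevF4.group F) := QuotientGroup.lift K π hKk
  have hker : ∀ g : Γ ⧸ K, π' g = 1 → ∃ x ∈ π.ker, (x : Γ ⧸ K) = g := fun g hg => by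
    obtain ⟨x, rfl⟩ := QuotientGroup.mk_surjective g
    exact ⟨x, hg, rfl⟩
  have hstem : Cfsg.IsStemExtension π' := ⟨fun g => let ⟨x, hx⟩ := hπ.1 g; ⟨x, hx⟩, fun g hg => by
    obtain ⟨x, hx, rfl⟩ := hker g hg
    rw [Subgroup.mem_center_iff]
    intro y
    obtain ⟨y, rfl⟩ := QuotientGroup.mk_surjective y
    exact congrArg (QuotientGroup.mk (s := K)) (E.mul_comm_ker hx y), fun g hg => by
    obtain ⟨x, hx, rfl⟩ := hker g hg
    have := Subgroup.mem_map_of_mem (QuotientGroup.mk' K) (hπ.2.2 hx)
    rw [commutator_def, Subgroup.map_commutator] at this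
    rw [commutator_def]
    exact Subgroup.commutator_mono le_top le_top this⟩
  have E' : CExt h.toStd π' := ⟨hstem.1, hstem.2.1⟩
  have hP : ∀ r s, P E' r s = QuotientGroup.mk' K (P E r s) := fun r s => by
    rw [P, P, CExt.cl, CExt.cl, map_commutatorElement]
    exact E'.comm_congr ((E'.map_lift r 1).trans (E.map_lift r 1).symm) ((E'.map_lift s 1).trans (E.map_lift s 1).symm)
  have hB : B E' = 1 := by
    have e : B E' = QuotientGroup.mk' K (B E) := by simp only [B, X, hP, map_mul, map_inv]
    rw [e]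
    exact (QuotientGroup.eq_one_iff _).2 (Subgroup.subset_closure rfl)
  -- the projection of Steinberg's group is an isomorphism
  have hsub : Subsingleton Fˣ := ⟨fun a b => Units.ext (by
    rw [(hF a).resolve_left a.ne_zero, (hF b).resolve_left b.ne_zero])⟩
  have hcen : Subgroup.center (chevF4.SteinbergGroup F) = ⊥ := by
    obtain ⟨σ, η, cart, coro, par, dep, w0, C, hE⟩ := hasStCert_of_mem h.mem F
    rw [eq_bot_iff]
    intro g hg
    obtain ⟨c, rfl⟩ := C.exists_torPhi h hE (C.ker_le_tor h hE (C.center_le_ker h hE hg))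
    rw [Subsingleton.elim c 1, map_one]
    exact one_mem _
  let e := MulEquiv.ofBijective (thetaGroup (K := F) h)
    ⟨(MonoidHom.ker_eq_bot_iff _).1 (by rw [ker_thetaGroup h, hcen]), thetaGroup_surjective h⟩
  let ρ : Γ ⧸ K →* chevF4.SteinbergGroup F := e.symm.toMonoidHom.comp π'
  have hρπ : (thetaGroup h).comp ρ = π' := MonoidHom.ext fun g => e.apply_symm_apply (π' g)
  have hρ : Cfsg.IsStemExtension ρ := (SchurMult.isStemExtension_comp_equiv hstem e.symm).1
  have hperf : commutator (chevF4.SteinbergCover F) = ⊤ := cover_perfect (by simp) fun h => absurd h (by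
    simp only [List.mem_cons, List.not_mem_nil, or_false, not_or]
    exact ⟨fun e => absurd (congrArg ChevalleyDatum.nroots e) (by decide),
      fun e => absurd (congrArg ChevalleyDatum.nroots e) (by decide)⟩)
  have hbot := ker_eq_bot_of_lifts h hperf hρ (fun hE => by
    rw [hρπ]; exact ⟨_, lifts_spec hF h E' hB⟩)
  refine ⟨B E, m1, B_sq hF E, fun x hx => ?_⟩
  have : (x : Γ ⧸ K) ∈ ρ.ker := by
    show e.symm (π' x) = 1
    rw [show π' (x : Γ ⧸ K) = π x from rfl, MonoidHom.mem_ker.1 hx, map_one]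
  rw [hbot, Subgroup.mem_bot, QuotientGroup.eq_one_iff] at this
  exact this

end CfsgLib.FFourTwo
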